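import Cfsg.Agent.H67.OdmRes
import Cfsg.Agent.H683.OddM.Fields

/-!
# S4785: no residual class above a group of order `|T|` for `PSL_n(q)`, `q` odd, `n = 3` or `n ≥ 5` (helper683, helper67)
-/

set_option autoImplicit false

namespace Cfsg.Agent.H683.OddM

open Matrix Cfsg.Geo Cfsg.Agent.H453.OddM Cfsg.Agent.H67.Odm Cfsg.Agent.H304.PslT

universe u

/-- **L-RES.** -/
theorem no_res {n : ℕ} {F : Type u} [Field F] [Finite F] (h2 : (2 : F) ≠ 0) (hn : n = 3 ∨ 5 ≤ n)
    {R M : Subgroup (Matrix.ProjectiveSpecialLinearGroup (Fin n) F)} (hR : RO _ R) (hRM : R ≤ M) (hM : M ≠ ⊤)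
    {P : Subgroup (GL (Fin n) F)} (hP : IsResidualCore (pre M) P) : False :=
  no_res_of h2 hn (fun _ hE hall => fields h2 hE (by simpa using hn) hall) hR hRM hM hP

end Cfsg.Agent.H683.OddM
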